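import Cfsg.Agent.H17.CommGraph
import Cfsg.Agent.H85.E2
import Cfsg.Agent.H48.Omega
import Cfsg.Agent.S0122
import Cfsg.Agent.S0126
import Cfsg.Agent.H98.Sec

/-! The commuting graph of noncyclic elementary abelian subgroups of a `p`-group. -/

set_option autoImplicit false

namespace H96

open Subgroup Cfsg H98 H17

theorem card_ker_pow_le {A : Type*} [AddCommGroup A] [Finite A] (f : Module.End ℤ A) (n : ℕ) :
    Nat.card (LinearMap.ker (f ^ n)) ≤ Nat.card (LinearMap.ker f) ^ n := by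
  induction n with
  | zero => rw [pow_zero, pow_zero, Module.End.one_eq_id, LinearMap.ker_id]; simp
  | succ n ih =>
    let g : LinearMap.ker (f ^ (n + 1)) →+ LinearMap.ker (f ^ n) :=
      { toFun := fun x => ⟨f x, by rw [LinearMap.mem_ker, ← Module.End.mul_apply, ← pow_succ]; exact x.2⟩
        map_zero' := Subtype.ext (map_zero f)
        map_add' := fun x y => Subtype.ext (map_add f _ _) }
    rw [← g.ker.index_mul_card, AddSubgroup.index_ker, pow_succ (Nat.card _)]
    exact Nat.mul_le_mul ((AddSubgroup.card_le_card_addGroup _).trans ih)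
      (Nat.card_le_card_of_injective (fun x => (⟨x.1.1, congrArg Subtype.val x.2⟩ : LinearMap.ker f))
        fun x y e => Subtype.ext (Subtype.ext (congrArg (fun z : LinearMap.ker f => z.1) e)))

variable {G : Type*} [Group G] [Finite G] {p k : ℕ} [hp : Fact p.Prime]

theorem card_le_card_centralizer_pow {N : Subgroup G} (hN : IsElementaryAbelian p N) {x : G}
    (hx : x ∈ normalizer (N : Set G)) (h : x ^ p = 1) :
    Nat.card N ≤ Nat.card ↥(N ⊓ centralizer {x}) ^ p := by
  obtain ⟨M, _, ⟨s⟩⟩ := exists_sec (bot_le (a := N)) (commutator_le.2 fun a ha b hb =>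
    commutatorElement_eq_one_iff_mul_comm.2 (ea_commute hN ha hb).eq)
  haveI := s.finite
  have hx' : x ∈ nn N ⊥ := ⟨hx, le_normalizer_bot ⊤ (mem_top x)⟩
  have h0 : ((p : ℕ) : Module.End ℤ M) = 0 := LinearMap.ext fun m => by
    obtain ⟨y, hy, rfl⟩ := s.surj m
    rw [Module.End.natCast_apply, ← s.pow hy, hN.2 y hy, s.one]; rfl
  have h1 : ((s.α x).toLinearMap - 1 : Module.End ℤ M) ^ p = 0 := by
    have e := (Commute.one_right (s.α x).toLinearMap).neg_right.add_pow_prime_eq hp.out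
    have e1 : ((s.α x).toLinearMap : Module.End ℤ M) ^ p = 1 := by
      have := (map_pow (LinearEquiv.automorphismGroup.toLinearMapMonoidHom) (s.α x) p).symm
      rw [← s.α_pow hx', h, s.α_one] at this
      exact this
    rw [sub_eq_add_neg, e, e1, h0, zero_mul, zero_mul, zero_mul, add_zero]
    rcases hp.out.eq_two_or_odd' with rfl | ho
    · rw [neg_one_sq, one_add_one_eq_two]; exact_mod_cast h0
    · rw [ho.neg_one_pow, add_neg_cancel]
  have h2 := card_ker_pow_le ((s.α x).toLinearMap - 1) p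
  rw [h1, LinearMap.ker_zero, Nat.card_congr Submodule.topEquiv.toEquiv, s.card_eq, relIndex_bot_left] at h2
  have h3 : ∀ m : LinearMap.ker ((s.α x).toLinearMap - 1 : Module.End ℤ M), s.σ m.1 ∈ N ⊓ centralizer {x} :=
    fun m => ⟨s.σ_mem _, mem_centralizer_singleton_iff.2 (commutatorElement_eq_one_iff_mul_comm.1
      ((s.smul_eq_iff hx' (s.σ_mem m.1)).1 (by rw [s.ψ_σ]; exact sub_eq_zero.1 m.2))).symm⟩
  exact h2.trans (Nat.pow_le_pow_left (Nat.card_le_card_of_injective (fun m => ⟨s.σ m.1, h3 m⟩)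
    fun a b e => Subtype.ext (by rw [← s.ψ_σ a.1, ← s.ψ_σ b.1, show s.σ a.1 = s.σ b.1 from congrArg (·.1) e])) p)

omit [Finite G] hp in
theorem not_pRankLE_iff {H : Subgroup G} :
    ¬ PRankLE p k H ↔ ∃ E ≤ H, IsElementaryAbelian p E ∧ p ^ k < Nat.card E := by
  simp only [PRankLE, not_forall, not_le]
  refine ⟨fun ⟨A, h1, h2, h3⟩ => ⟨A.map H.subtype, map_subtype_le _, elemAb_map ⟨h1, h2⟩ _, ?_⟩,
    fun ⟨E, h1, h2, h3⟩ => ⟨E.subgroupOf H, (elemAb_subgroupOf h2 H).1, (elemAb_subgroupOf h2 H).2, ?_⟩⟩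
  · rwa [card_map_of_injective H.subtype_injective]
  · rwa [Nat.card_congr (subgroupOfEquivOfLe h1).toEquiv]

theorem pow_succ_le_card {E : Subgroup G} (h : IsElementaryAbelian p E) (h1 : p ^ k < Nat.card E) :
    p ^ (k + 1) ≤ Nat.card E := by
  obtain ⟨n, e⟩ := IsPGroup.iff_card.1 (isPGroup_of_ea h)
  rw [e] at h1 ⊢
  exact Nat.pow_le_pow_right hp.out.pos ((Nat.pow_lt_pow_iff_right hp.out.one_lt).1 h1)

omit hp in
theorem card_le_of_rank {X : Subgroup G} (h : PRankLE p 2 (centralizer (X : Set G)))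
    (hX : IsElementaryAbelian p X) : Nat.card X ≤ p ^ 2 := not_lt.1 fun e =>
  (not_pRankLE_iff (H := centralizer (X : Set G))).2 ⟨X, fun _ ha _ hb => elemAb_comm hX hb ha, hX, e⟩ h

omit hp in
theorem eq_of_rank {X Y : Subgroup G} (h : PRankLE p 2 (centralizer (X : Set G)))
    (hX : IsElementaryAbelian p X) (h1 : p ^ 2 ≤ Nat.card X) (hY : IsElementaryAbelian p Y)
    (hc : ∀ a ∈ X, ∀ b ∈ Y, a * b = b * a) : Y ≤ X := by
  have h2 : X ⊔ Y ≤ centralizer (X : Set G) :=
    sup_le (fun a ha b hb => elemAb_comm hX hb ha) fun b hb a ha => hc a ha b hb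
  have h3 : Nat.card ↥(X ⊔ Y) ≤ p ^ 2 := not_lt.1 fun e =>
    not_pRankLE_iff.2 ⟨_, h2, elemAb_sup hX hY hc, e⟩ h
  exact le_sup_right.trans (eq_of_le_of_card_ge le_sup_left (h3.trans h1)).ge

theorem conn_iff (hP : IsPGroup p G) (hrk : ¬ PRankLE p 2 G) {U : Subgroup G} [U.Normal]
    (hU : IsElementaryAbelian p U) (h1 : Nat.card U = p ^ 2) {X : Subgroup G} (hX : IsElementaryAbelian p X)
    (h2 : p ^ 2 ≤ Nat.card X) : CConn p 2 X U ↔ ¬ PRankLE p 2 (centralizer (X : Set G)) := by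
  have h3 : ∀ E : Subgroup G, IsElementaryAbelian p E → p ^ 2 < Nat.card E →
      p ^ 2 ≤ Nat.card ↥(E ⊓ centralizer (U : Set G)) := fun E hE h => by
    have e1 := pow_succ_le_card hE h
    have e2 := ((centralizer (U : Set G)).subgroupOf E).index_mul_card
    have e3 : ((centralizer (U : Set G)).subgroupOf E).index ≤ p := Nat.le_of_dvd hp.out.pos
      ((relIndex_dvd_index_of_normal _ E).trans (H48.index_centralizer_dvd hP U h1.le))
    rw [← inf_subgroupOf_left, Nat.card_congr (subgroupOfEquivOfLe inf_le_left).toEquiv,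
      inf_subgroupOf_left] at e2
    rw [pow_succ', ← e2] at e1
    exact Nat.le_of_mul_le_mul_left (e1.trans (Nat.mul_le_mul_right _ e3)) hp.out.pos
  refine ⟨fun h => ?_, fun h => ?_⟩
  · induction h using Relation.ReflTransGen.head_induction_on with
    | refl =>
      simp only [PRankLE, not_forall, not_le] at hrk
      obtain ⟨E, a1, a2, h⟩ := hrk
      have hE : IsElementaryAbelian p E := ⟨a1, a2⟩
      intro e
      have e1 : E ⊓ centralizer (U : Set G) = U := eq_of_le_of_card_ge (eq_of_rank e hU h2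
        (elemAb_of_le hE inf_le_left) fun a ha b hb => hb.2 a ha) (h1.le.trans (h3 E hE h))
      have e2 : E ≤ U := eq_of_rank e hU h2 hE fun a ha b hb => elemAb_comm hE (e1.ge ha).1 hb
      exact (h.trans_le (card_le_of_le e2)).ne h1.symm
    | head h _ ih =>
      intro e
      have e1 := eq_of_le_of_card_ge (eq_of_rank e hX h2 h.2.2.1 h.2.2.2.2) ((card_le_of_rank e hX).trans h.2.2.2.1)
      exact ih h.2.2.1 h.2.2.2.1 (e1 ▸ e)
  · obtain ⟨E, e1, hE, e2⟩ := not_pRankLE_iff.1 h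
    have e3 := elemAb_of_le hE (inf_le_left (b := centralizer (U : Set G)))
    exact CConn.trans (CAdj.conn ⟨hX, h2, e3, h3 E hE e2, fun a ha b hb => e1 hb.1 a ha⟩)
      (CAdj.conn ⟨e3, h3 E hE e2, hU, h1.ge, fun a ha b hb => (ha.2 b hb).symm⟩)

theorem exists_normal_sq (hP : IsPGroup p G) (hrk : ¬ PRankLE p 2 G) :
    ∃ U : Subgroup G, U.Normal ∧ IsElementaryAbelian p U ∧ Nat.card U = p ^ 2 := by
  simp only [PRankLE, not_forall, not_le] at hrk
  obtain ⟨E, h1, h2, h3⟩ := hrk
  by_cases h : p = 2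
  · subst h
    obtain ⟨U, h4, h5⟩ := H85.exists_normal_four hP (E := E) (fun a ha => by rw [← sq]; exact h2 a ha) h3
    exact ⟨U, h4, ⟨IsKleinFour.isMulCommutative, fun a ha => by
      rw [sq]; exact congrArg Subtype.val (IsKleinFour.mul_self (⟨a, ha⟩ : U))⟩, h5.card_four⟩
  refine Cfsg.Agent.S0126.result h hP fun e => ?_
  have h4 : Nat.card E ∣ p := by
    rw [← IsCyclic.exponent_eq_card]
    exact Monoid.exponent_dvd_of_forall_pow_eq_one fun a => Subtype.ext (h2 a a.2)
  have := Nat.le_of_dvd hp.out.pos h4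
  nlinarith [hp.out.two_le]

theorem kConnected_three (hP : IsPGroup 3 G) (hrk : ¬ PRankLE 3 3 G) : IsKConnected 3 2 G := by
  haveI : Fact (Nat.Prime 3) := ⟨Nat.prime_three⟩
  have h1 : ¬ PRankLE 3 2 G := fun e => hrk fun A a1 a2 => (e A a1 a2).trans (by norm_num)
  obtain ⟨U, hn, hU, h2⟩ := exists_normal_sq hP h1
  simp only [PRankLE, not_forall, not_le] at hrk
  obtain ⟨E, e1, e2, e3⟩ := hrk
  obtain ⟨E', e4⟩ := Sylow.exists_subgroup_card_pow_prime_of_le_card Nat.prime_three
    (isPGroup_of_ea ⟨e1, e2⟩) (pow_succ_le_card ⟨e1, e2⟩ e3)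
  obtain ⟨N, hN, e5, e6⟩ := Cfsg.Agent.S0122.result (by norm_num) hP (E'.map E.subtype)
    (elemAb_of_le ⟨e1, e2⟩ (map_subtype_le _)) (by rwa [card_map_of_injective E.subtype_injective])
  have key : ∀ X : Subgroup G, IsElementaryAbelian 3 X → 3 ^ 2 ≤ Nat.card X → CConn 3 2 X U :=
    fun X hX h3 => (conn_iff hP h1 hU h2 hX h3).2 fun e => by
      have h4 : Nat.card X ≤ 3 ^ 2 := card_le_of_rank e hX
      obtain ⟨z, -, hz, hc⟩ := exists_central_orderOf (T := ⊤) (hP.to_subgroup ⊤) fun e => by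
        rw [eq_bot_iff.2 (e ▸ le_top : X ≤ ⊥), card_bot] at h3; omega
      have h5 : zpowers z ≤ X := eq_of_rank e hX h3 (elemAb_zpowers (hz ▸ pow_orderOf_eq_one z))
        fun a _ _ ⟨n, hb⟩ => hb ▸ (Commute.zpow_right (hc a trivial) n).eq
      obtain ⟨x, hx, hx'⟩ := SetLike.exists_of_lt (lt_of_le_of_ne h5 fun e => by
        rw [← e, Nat.card_zpowers, hz] at h3; omega)
      have h6 : zpowers z ⊔ zpowers x = X := by
        have e7 : zpowers z ⊔ zpowers x ≤ X := sup_le h5 (zpowers_le.2 hx)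
        refine eq_of_le_of_card_ge e7 (h4.trans (pow_succ_le_card (k := 1) (elemAb_of_le hX e7) ?_))
        rw [pow_one, ← hz, ← Nat.card_zpowers]
        exact lt_of_le_of_ne (card_le_of_le le_sup_left) fun e =>
          hx' (eq_of_le_of_card_ge le_sup_left e.ge ▸ mem_sup_right (mem_zpowers x))
      have h7 : N ⊓ centralizer {x} ≤ X := eq_of_rank e hX h3 (elemAb_of_le e5 inf_le_left) fun a ha b hb =>
        (show X ≤ centralizer {b} from h6 ▸ sup_le (zpowers_le.2 (mem_centralizer_singleton_iff.2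
          (hc b trivial).symm)) (zpowers_le.2 (mem_centralizer_singleton_iff.2
            (mem_centralizer_singleton_iff.1 hb.2).symm))) ha b rfl |>.symm
      have h8 := card_le_card_centralizer_pow e5 (top_le_normalizer N (mem_top x)) (hX.2 x hx)
      have h9 := eq_of_le_of_card_ge h7 (h4.trans (pow_succ_le_card (k := 1) (elemAb_of_le e5 inf_le_left)
        (not_le.1 fun e => by have := h8.trans (Nat.pow_le_pow_left e 3); omega)))
      have := card_le_of_le (eq_of_rank e hX h3 e5 fun a ha b hb => elemAb_comm e5 (h9.ge ha).1 hb)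
      omega
  exact isKConnected_iff.2 fun X Y h3 h4 h5 h6 => (key X h3 h4).trans (key Y h5 h6).symm

end H96
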