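import Cfsg.Agent.H41.LDKit2

/-! Tower LD5, job FP: frames from monomial triples. -/

set_option autoImplicit false

open Matrix Cfsg Cfsg.Geo H41.LD
open H19 hiding cj

namespace H96.LD

universe u

variable {K : Type u} [Field K] {n : ℕ} {G : Subgroup (GL (Fin n) K)} {r s t x r' s' t' : R n K}
  {e ε : Fin 3 → Fin n → K} {i j k : Fin 3} {η θ : K}

theorem NR_of_N (h : NR G r s t) (h1 : N r' = N r) (h2 : N s' = N s) (h3 : N t' = N t) :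
    NR G r' s' t' :=
  ⟨h.r1.of_N h1, h.r2.of_N h2, h.r3.of_N h3, by
    rw [tau_congr h1 h2 h3, tau_congr h1 h3 h2]; exact h.ne⟩

theorem dt_congr (h1 : N r' = N r) (h2 : N s' = N s) (h3 : N t' = N t) : dt r' s' t' = dt r s t := by
  rw [dt, dt, cc_congr h1 h2, cc_congr h2 h3, cc_congr h1 h3, tau_congr h1 h2 h3, tau_congr h1 h3 h2]

/-- A swap in the frame. -/
def Sw (e ε : Fin 3 → Fin n → K) (x : R n K) : Prop :=
  ∃ i j η, i ≠ j ∧ η ≠ 0 ∧ N x = N (sw e ε i j η)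

theorem Sw.cases (h : Sw e ε x) (hij : i ≠ j) (hik : i ≠ k) (hjk : j ≠ k) : ∃ η, η ≠ 0 ∧
    (N x = N (sw e ε i j η) ∨ N x = N (sw e ε j k η) ∨ N x = N (sw e ε i k η)) := by
  obtain ⟨a, b, η, h1, h2, h3⟩ := h
  have h4 := h3.trans (N_sw_symm e ε a b h2).symm
  have : ∀ i j k a b : Fin 3, i ≠ j → i ≠ k → j ≠ k → a ≠ b → (a = i ∧ b = j) ∨ (a = j ∧ b = k) ∨
    (a = i ∧ b = k) ∨ (b = i ∧ a = j) ∨ (b = j ∧ a = k) ∨ (b = i ∧ a = k) := by decide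
  rcases this i j k a b hij hik hjk h1 with
    ⟨rfl, rfl⟩ | ⟨rfl, rfl⟩ | ⟨rfl, rfl⟩ | ⟨rfl, rfl⟩ | ⟨rfl, rfl⟩ | ⟨rfl, rfl⟩
  exacts [⟨η, h2, Or.inl h3⟩, ⟨η, h2, Or.inr (Or.inl h3)⟩, ⟨η, h2, Or.inr (Or.inr h3)⟩,
    ⟨_, inv_ne_zero h2, Or.inl h4⟩, ⟨_, inv_ne_zero h2, Or.inr (Or.inl h4)⟩,
    ⟨_, inv_ne_zero h2, Or.inr (Or.inr h4)⟩]

theorem third (hij : i ≠ j) : ∃ k, i ≠ k ∧ j ≠ k := by revert i j; decide

theorem no_dg (hd : Dual e ε) (h : NR G r s t) (h0 : dt r s t ≠ 0) (hr : N r = N (dg e ε i))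
    (hs : (∃ i, N s = N (dg e ε i)) ∨ Sw e ε s) (ht : (∃ i, N t = N (dg e ε i)) ∨ Sw e ε t) : False := by
  have key : ∀ {x : R n K}, ((∃ i, N x = N (dg e ε i)) ∨ Sw e ε x) → N x = N (dg e ε i) ∨
      (∃ y, N x = N y ∧ Z e ε y i) ∨ ∃ j η, i ≠ j ∧ η ≠ 0 ∧ N x = N (sw e ε i j η) := by
    rintro x (⟨j, hj⟩ | hx)
    · by_cases hij : j = i
      · exact Or.inl (hij ▸ hj)
      · exact Or.inr (Or.inl ⟨_, hj, by simp [Z, dg, hd.ne hij, hd.ne (Ne.symm hij)]⟩)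
    · obtain ⟨j, hj⟩ := exists_ne i
      obtain ⟨k, h1, h2⟩ := third hj.symm
      obtain ⟨η, h3, p | p | p⟩ := hx.cases hj.symm h1 h2
      · exact Or.inr (Or.inr ⟨j, η, hj.symm, h3, p⟩)
      · exact Or.inr (Or.inl ⟨_, p, by
          simp [Z, sw, hd.ne hj, hd.ne hj.symm, hd.ne h1, hd.ne h1.symm]⟩)
      · exact Or.inr (Or.inr ⟨k, η, h1, h3, p⟩)
  rcases key hs with p | ⟨y, p, z⟩ | ⟨j, η, h1, h2, p⟩
  · exact h.N_ne (hr.trans p.symm)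
  · exact (NR_of_N h hr.symm p.symm rfl).ne (by simp [tau, dg, z.1, z.2])
  rcases key ht with q | ⟨y, q, z⟩ | ⟨k, θ, h3, h4, q⟩
  · exact h.swap.N_ne (hr.trans q.symm)
  · exact (NR_of_N h hr.symm rfl q.symm).ne (by simp [tau, dg, z.1, z.2])
  by_cases hjk : j = k
  · subst hjk
    refine h0 ?_
    rw [dt_congr hr p q, ← dt_rot, dt_sw_sw hd h1 h2 h4]
    simp [X, dg, hd.same, hd.ne h1.symm]
  · exact (NR_of_N h hr.symm p.symm q.symm).ne (by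
      simp [tau, dg, sw, hd.same, hd.ne h1, hd.ne h1.symm, hd.ne h3, hd.ne h3.symm, hd.ne hjk,
        hd.ne (Ne.symm hjk)])

theorem all_sw (h : NR G r s t) (h0 : dt r s t ≠ 0) (hm : Mono G r s t) :
    ∃ e ε : Fin 3 → Fin n → K, Dual e ε ∧ Sw e ε r ∧ Sw e ε s ∧ Sw e ε t := by
  obtain ⟨e, ε, hd, -, hx⟩ := hm
  have k := fun x a b => (hx x a b).imp_left fun ⟨i, hi⟩ => (⟨i, hi.2⟩ : ∃ i, N x = N (dg e ε i))
  have a := k r h.r1 (sup_1 r s t)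
  have b := k s h.r2 (sup_2 r s t)
  have c := k t h.r3 (sup_3 r s t)
  exact ⟨e, ε, hd, a.resolve_left fun ⟨_, p⟩ => no_dg hd h h0 p b c,
    b.resolve_left fun ⟨_, p⟩ => no_dg hd h.rot (by rwa [dt_rot]) p c a,
    c.resolve_left fun ⟨_, p⟩ => no_dg hd h.rot.rot (by rwa [dt_rot, dt_rot]) p a b⟩

/-- The conclusion of the first part. -/
def FM (G : Subgroup (GL (Fin n) K)) (c : K) : Prop :=
  ∃ e ε ζ, Frame G e ε ∧ Mu G e ε ζ ∧ ζ ^ 2 ≠ 1 ∧ (c = 1 ∨ c = 2 + ζ + ζ⁻¹)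

theorem FM.one {c d : K} (h : FM G c) (hd : d = 1) : FM G d :=
  let ⟨e, ε, ζ, h1, h2, h3, _⟩ := h
  ⟨e, ε, ζ, h1, h2, h3, Or.inl hd⟩

theorem fm_aux (hd : Dual e ε) (hij : i ≠ j) (hik : i ≠ k) (hjk : j ≠ k) {η' : K} (hη : η ≠ 0)
    (hη' : η' ≠ 0) (hθ : θ ≠ 0) (h : NR G r s t) (h1 : N r = N (sw e ε i j η))
    (h2 : N s = N (sw e ε i j η')) (h3 : N t = N (sw e ε j k θ)) : FM G (cc r s) := by
  refine ⟨![e i, η • e j, (η * θ) • e k], ![ε i, η⁻¹ • ε j, (η * θ)⁻¹ • ε k], η' * η⁻¹,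
    ⟨fun a b => ?_, h.r1.of_N (Eq.trans (by simp [sw]) h1.symm), h.r3.of_N (Eq.trans ?_ h3.symm)⟩,
    ⟨by simp [hη, hη'], h.r2.of_N (Eq.trans (by simp [sw, smul_smul, hη, mul_comm η]) h2.symm)⟩,
    fun z => (NR_of_N h h1.symm h2.symm rfl).ne ?_, Or.inr ?_⟩
  · fin_cases a <;> fin_cases b <;>
      simp [hd.same, hd.ne hij, hd.ne hik, hd.ne hjk, hd.ne hij.symm, hd.ne hik.symm, hd.ne hjk.symm, hη]
    field_simp
  · rw [← N_scale hη (sw e ε j k θ)]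
    simp [sw, smul_sub, smul_smul, mul_comm]
  · rw [← sub_eq_zero, tau_sw_sub hd hij hη hη', show η' * η⁻¹ = η'⁻¹ * η by
      rw [eq_inv_of_mul_eq_one_left ((pow_two _).symm.trans z), mul_inv, inv_inv], sub_self, mul_zero]
  · rw [cc_congr h1 h2, cc_sw_sw hd hij hη hη', mul_inv, inv_inv]

theorem cc_sw_one (hd : Dual e ε) (hij : i ≠ j) (hik : i ≠ k) (hjk : j ≠ k) (hη : η ≠ 0)
    (h1 : N r = N (sw e ε i j η)) (h2 : N s = N (sw e ε j k θ)) : cc r s = 1 := by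
  rw [cc_congr h1 h2]
  simp [cc, sw, hd.same, hd.ne hij, hd.ne hik, hd.ne hjk, hd.ne hij.symm, hd.ne hik.symm,
    hd.ne hjk.symm, hη]

theorem fm_aux2 (hd : Dual e ε) (hij : i ≠ j) (hik : i ≠ k) (hjk : j ≠ k) (hη : η ≠ 0) (hθ : θ ≠ 0)
    (h : NR G r s t) (h1 : N r = N (sw e ε i j η)) (h2 : N s = N (sw e ε j k θ)) (h3 : Sw e ε t) :
    FM G (cc r s) := by
  have c := cc_sw_one hd hij hik hjk hη h1 h2
  obtain ⟨l, hl, p | p | p⟩ := h3.cases hij hik hjk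
  · exact (fm_aux hd hij hik hjk hη hl hθ h.swap h1 p h2).one c
  · exact (fm_aux hd hjk.symm hik.symm hij.symm (inv_ne_zero hθ) (inv_ne_zero hl) (inv_ne_zero hη)
      h.rot (h2.trans (N_sw_symm _ _ _ _ hθ).symm) (p.trans (N_sw_symm _ _ _ _ hl).symm)
      (h1.trans (N_sw_symm _ _ _ _ hη).symm)).one c
  · exact (fm_aux hd hik hij hjk.symm (mul_ne_zero hη hθ) hl (inv_ne_zero hθ) h.cj.swap
      (by rw [N_cj, h1, h2, ← N_cj, cj_sw_right hd hij hik hjk]) p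
      (h2.trans (N_sw_symm _ _ _ _ hθ).symm)).one c

theorem fp1 (h : NR G r s t) (h0 : dt r s t ≠ 0) (hm : Mono G r s t) : FM G (cc r s) := by
  obtain ⟨e, ε, hd, ⟨i, j, η, hij, hη, h1⟩, hs, ht⟩ := all_sw h h0 hm
  obtain ⟨k, hik, hjk⟩ := third hij
  have h1' := h1.trans (N_sw_symm _ _ _ _ hη).symm
  obtain ⟨θ, hθ, p | p | p⟩ := hs.cases hij hik hjk
  · obtain ⟨l, hl, q | q | q⟩ := ht.cases hij hik hjk
    · refine absurd ?_ h0
      rw [dt_congr h1 p q, dt_sw_sw hd hij hη hθ]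
      simp [X, sw, hd.same, hd.ne hij, hd.ne hij.symm, hl]
      exact Or.inr (by norm_num)
    · exact fm_aux hd hij hik hjk hη hθ hl h h1 p q
    · exact fm_aux hd hij.symm hjk hik (inv_ne_zero hη) (inv_ne_zero hθ) hl h h1'
        (p.trans (N_sw_symm _ _ _ _ hθ).symm) q
  · exact fm_aux2 hd hij hik hjk hη hθ h h1 p ht
  · exact fm_aux2 hd hij.symm hjk hik (inv_ne_zero hη) hθ h h1' p ht

theorem idem {e' ε' : Fin 3 → Fin n → K} {i' j' : Fin 3} (hd : Dual e ε) (hd' : Dual e' ε')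
    (hij : i ≠ j) (hij' : i' ≠ j') {a b : K} (ha : a ≠ 0) (hab : a ≠ b)
    (h : a • N (e i, ε i) + b • N (e j, ε j) = a • N (e' i', ε' i') + b • N (e' j', ε' j')) :
    X e ε x i = X e' ε' x i' ∧ (Z e' ε' x i' → Z e ε x i) := by
  have h2 := congrArg₂ (· * ·) h h
  simp only [mul_add, add_mul, Matrix.mul_smul, Matrix.smul_mul, N_mk_mul, hd.same, hd'.same,
    hd.ne hij, hd.ne hij.symm, hd'.ne hij', hd'.ne hij'.symm, zero_smul, one_smul, smul_zero,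
    add_zero, zero_add] at h2
  have h3 : N (e i, ε i) = N (e' i', ε' i') :=
    smul_right_injective _ (mul_ne_zero ha (sub_ne_zero.2 hab)) (by
      linear_combination (norm := module) h2 - b • h)
  refine ⟨cc_congr h3 rfl, fun z => ?_⟩
  obtain ⟨c, -, h4, h5⟩ := exists_smul_of_N h3 (fun e0 => by simpa [show e' i' = 0 from e0] using hd'.same i')
    (fun e0 => by simpa [show ε' i' = 0 from e0] using hd'.same i')
  exact ⟨by rw [show ε i = _ from h5, smul_dotProduct, z.1, smul_zero],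
    by rw [show e i = _ from h4, dotProduct_smul, z.2, smul_zero]⟩

theorem fp2 {ζ : K} (hf : Frame G e ε) (hm : Mu G e ε ζ) (h2 : ζ ^ 2 ≠ 1) (h3 : ζ ^ 3 ≠ 1)
    (hx : Rf G x) (h0 : dt (sw e ε 0 1 1) (sw e ε 0 1 ζ) x ≠ 0)
    (hM : Mono G (sw e ε 0 1 1) (sw e ε 0 1 ζ) x) : HP1 e ε x := by
  refine or_iff_not_imp_left.2 fun hne => ?_
  have hζ := hm.1
  have z1 : ζ ≠ ζ⁻¹ := fun z => h2 (by rw [pow_two]; nth_rw 2 [z]; exact mul_inv_cancel₀ hζ)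
  have z2 : ζ - 1 ≠ 0 := fun z => h2 (by rw [sub_eq_zero.1 z, one_pow])
  have z3 : ζ⁻¹ - 1 ≠ 0 := fun z => z2 (by rw [inv_eq_one.1 (sub_eq_zero.1 z), sub_self])
  have nr : NR G (sw e ε 0 1 1) (sw e ε 0 1 ζ) x := ⟨hf.s01, hm.2, hx, fun c => by
    have := tau_sw_sub hf.dual (i := 0) (j := 1) (by decide) one_ne_zero hζ x
    rw [c, sub_self, inv_one, mul_one, mul_one] at this
    exact mul_ne_zero (sub_ne_zero.2 hne) (sub_ne_zero.2 z1) this.symm⟩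
  obtain ⟨e', ε', hd, ⟨i, j, η, hij, hη, h1⟩, hs, ht⟩ := all_sw nr h0 hM
  obtain ⟨k, hik, hjk⟩ := third hij
  have c := cc_sw_sw hf.dual (i := 0) (j := 1) (by decide) one_ne_zero hζ
  rw [inv_one, mul_one, mul_one] at c
  have c1 : cc (sw e ε 0 1 1) (sw e ε 0 1 ζ) ≠ 1 := fun c1 => h3 (by
    have := mul_inv_cancel₀ hζ
    linear_combination (ζ - 1) * ζ * (c1 - c) - (ζ - 1) * this)
  obtain ⟨θ, hθ, p | p | p⟩ := hs.cases hij hik hjk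
  rotate_left
  · exact absurd (cc_sw_one hd hij hik hjk hη h1 p) c1
  · exact absurd (cc_sw_one hd hij.symm hjk hik (inv_ne_zero hη)
      (h1.trans (N_sw_symm _ _ _ _ hη).symm) p) c1
  have m := sw_mul_sw hf.dual (i := 0) (j := 1) (by decide) hζ one_ne_zero
  rw [h1, p, sw_mul_sw hd hij hθ hη, inv_one, mul_one, mul_one, add_assoc, add_assoc,
    add_right_inj] at m
  rw [cc_congr h1 p, cc_sw_sw hd hij hη hθ] at c
  have key : ∀ {i j : Fin 3}, i ≠ j → (ζ - 1) • N (e 0, ε 0) + (ζ⁻¹ - 1) • N (e 1, ε 1) =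
      (ζ - 1) • N (e' i, ε' i) + (ζ⁻¹ - 1) • N (e' j, ε' j) →
      (X e ε x 0 = 1 ∧ Z e ε x 1) ∨ (X e ε x 1 = 1 ∧ Z e ε x 0) := fun {i j} hij m => by
    obtain ⟨k, hik, hjk⟩ := third hij
    obtain ⟨a1, a2⟩ := idem (x := x) hf.dual hd (by decide) hij z2 (by simpa using z1) m
    obtain ⟨b1, b2⟩ := idem (x := x) hf.dual hd (by decide) hij.symm z3 (by simpa using z1.symm)
      ((add_comm _ _).trans (m.trans (add_comm _ _)))
    rw [a1, b1] at hne ⊢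
    obtain ⟨l, hl, q⟩ := ht.cases hij hik hjk
    have s : ∀ {y : R n K}, N x = N y → ∃ c : K, c ≠ 0 ∧ x.1 = c • y.1 ∧ x.2 = c⁻¹ • y.2 :=
      fun q => exists_smul_of_N q (hx.of_N q.symm).2.1 (hx.of_N q.symm).2.2.1
    rcases q with q | q | q <;> obtain ⟨c, hc, q1, q2⟩ := s q
    · refine absurd ?_ hne
      simp [X, q1, q2, sw, hd.same, hd.ne hij, hd.ne hij.symm, hc]
      field_simp
    · exact Or.inr ⟨by simp [X, q1, q2, sw, hd.same, hd.ne hjk, hd.ne hjk.symm, hc], a2 (by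
        simp [Z, q1, q2, sw, hd.ne hij, hd.ne hij.symm, hd.ne hik, hd.ne hik.symm])⟩
    · exact Or.inl ⟨by simp [X, q1, q2, sw, hd.same, hd.ne hik, hd.ne hik.symm, hc], b2 (by
        simp [Z, q1, q2, sw, hd.ne hij, hd.ne hij.symm, hd.ne hjk, hd.ne hjk.symm])⟩
  have i1 : θ⁻¹ * η = (θ * η⁻¹)⁻¹ := by rw [mul_inv, inv_inv]
  rw [i1] at m c
  have μ0 : θ * η⁻¹ ≠ 0 := mul_ne_zero hθ (inv_ne_zero hη)
  generalize θ * η⁻¹ = μ at m c μ0
  have : (μ - ζ) * (μ - ζ⁻¹) = 0 := by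
    linear_combination μ * c - mul_inv_cancel₀ μ0 + mul_inv_cancel₀ hζ
  refine or_assoc.1 (Or.inl ?_)
  rcases mul_eq_zero.1 this with q | q <;> rw [sub_eq_zero.1 q] at m
  · exact key hij m.symm
  · rw [inv_inv] at m
    exact key hij.symm (m.symm.trans (add_comm _ _))

theorem jobFP : JobFP.{u} := fun _ _ _ =>
  ⟨fun _ _ _ => fp1, fun _ _ _ _ => fp2⟩

end H96.LD
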