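import Cfsg.Agent.H31.O7A
import Cfsg.Agent.H58.HypFrame

/-! O7, job Step: one step of the extension of a full form. -/

set_option autoImplicit false

namespace H96.O7Step

open H56 H31.O7 QuadraticMap Module

universe u

theorem exists_s {K : Type u} [Field K] [Finite K] (h2 : (2 : K) ≠ 0) (h5 : 5 ≤ Nat.card K) :
    ∃ s : K, s ≠ 0 ∧ s ^ 2 ≠ 1 ∧ s ^ 2 ≠ 2 := by
  classical
  have := Fintype.ofFinite K
  by_cases h3 : (3 : K) = 0
  · obtain ⟨s, -, hs⟩ := Finset.exists_mem_notMem_of_card_lt_card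
      (s := ({0, 1, -1} : Finset K)) (t := Finset.univ) (by
        rw [Finset.card_univ, ← Nat.card_eq_fintype_card]
        exact Finset.card_le_three.trans_lt (by omega))
    simp only [Finset.mem_insert, Finset.mem_singleton, not_or] at hs
    obtain ⟨s0, s1, s2⟩ := hs
    have k : s ^ 2 ≠ 1 := fun h => (sq_eq_one_iff_of_ne_zero_aux h).elim s1 s2
    by_cases h : s ^ 2 = 2
    · refine ⟨s + 1, fun e => s2 (by linear_combination e), fun e => s2 ?_, fun e => s1 ?_⟩
      · linear_combination -e + h + (s + 1) * h3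
      · linear_combination -e + h + s * h3
    · exact ⟨s, s0, k, h⟩
  · exact ⟨2, h2, fun e => h3 (by linear_combination e), fun e => h2 (by linear_combination e)⟩
where
  sq_eq_one_iff_of_ne_zero_aux {K : Type u} [Field K] {s : K} (h : s ^ 2 = 1) : s = 1 ∨ s = -1 :=
    sq_eq_one_iff.1 h

theorem jobStep : JobStep.{u} := by
  intro qf K _ V _ _ _ Q hfin h2 Λ f Ψ hc hf ho hnd hdim hne hinv hsm hfull ⟨y, hy, hy0, hyf⟩
  let q : QuadraticForm K Λ := Q.comp Λ.subtype
  have hq : ∀ x : Λ, q x = Q x := fun _ => rfl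
  have hp : ∀ x z : Λ, polar q x z = polar Q x z := fun x z => by
    simp only [polar, hq, Submodule.coe_add]
  have nd : q.polarBilin.Nondegenerate := by
    refine ⟨fun x h => Subtype.ext (hnd x x.2 fun z hz => ?_),
      fun x h => Subtype.ext (hnd x x.2 fun z hz => ?_)⟩
    · exact (hp x ⟨z, hz⟩).symm.trans (h ⟨z, hz⟩)
    · rw [polar_comm]; exact (hp ⟨z, hz⟩ x).symm.trans (h ⟨z, hz⟩)
  obtain ⟨-, k⟩ := qf K Λ q hfin h2 nd (by omega)
  obtain ⟨k2, k3⟩ := k hdim
  have hQ : ∀ x : Λ, Q (x + f) = q x + Q f := fun x => by rw [Q_add, ho x x.2, add_zero, hq]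
  have hneg : ∀ v, -v ∈ Ψ → v ∈ Ψ := fun v hv => by
    simpa using hsm _ hv (-1) (neg_ne_zero.2 one_ne_zero)
  -- moving
  have move : ∀ g ∈ reflGroup q {v | ∃ t, t ≠ 0 ∧ q v = t ^ 2}, ∀ x : Λ, (x : V) + f ∈ Ψ →
      (g x : V) + f ∈ Ψ := by
    intro g hg
    induction hg using reflGroup_induction with
    | h1 => exact fun x hx => hx
    | hmul v hv _ g hg ih =>
      intro x hx
      obtain ⟨t, t0, ht⟩ := hv
      have := hinv v (hfull v v.2 t t0 ht) _ (ih x hx)
      rw [refl_apply, polar_add_right, ho v v.2, add_zero] at this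
      rw [O.mul_apply, refl_apply, hp, hq, Submodule.coe_sub, Submodule.coe_smul, sub_add_eq_add_sub]
      exact this
  -- making
  have make : ∀ (y v : Λ) (t : K), (y : V) + f ∈ Ψ → t ≠ 0 → q v = t ^ 2 →
      polar q v y = Q (y + f) → ((y - v : Λ) : V) + f ∈ Ψ ∧ q (y - v) = t ^ 2 - Q f := by
    intro y v t hy t0 ht hr
    refine ⟨hneg _ ?_, ?_⟩
    · have := hinv _ hy _ (hfull v v.2 t t0 ht)
      rw [refl_apply, polar_comm, polar_add_right, ho v v.2, add_zero, ← hp, hr,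
        inv_mul_cancel₀ (hne _ hy), one_smul] at this
      convert this using 1
      rw [Submodule.coe_sub]; abel
    · rw [Q_sub, polar_comm, hr, hQ, ht]; ring
  -- case A
  have caseA : ∀ (x : Λ) (t : K), t ≠ 0 → t ^ 2 ≠ Q f → q x = t ^ 2 - Q f → (x : V) + f ∈ Ψ := by
    intro x t t0 h1 hx
    have n0 : t ^ 2 - Q f ≠ 0 := sub_ne_zero.2 h1
    rcases k2 ⟨y, hy⟩ (t ^ 2) (Q (y + f)) (fun e => hy0 (congrArg Subtype.val e)) (pow_ne_zero 2 t0)
      (hne _ hyf) with ⟨v, v1, v2, v3⟩ | ⟨-, e1, e2⟩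
    · obtain ⟨m1, m2⟩ := make ⟨y, hy⟩ v t hyf t0 v1 v2
      obtain ⟨g, hg, rfl⟩ := k3 (⟨y, hy⟩ - v) x (sub_ne_zero.2 v3.symm)
        (fun e => n0 (by rw [← hx, e, map_zero])) (m2.trans hx.symm) (.inl (m2 ▸ n0))
      exact move g hg _ m1
    · exact absurd (by have := hQ ⟨y, hy⟩; linear_combination this + e1 - e2) h1
  -- case B
  have caseB : ∀ (e : Λ) (t : K), t ≠ 0 → t ^ 2 = Q f → e ≠ 0 → q e = 0 → (e : V) + f ∈ Ψ := by
    intro e t t0 h1 e0 he
    have tt : t ^ 2 ≠ 0 := pow_ne_zero 2 t0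
    by_cases h5 : 5 ≤ Nat.card K
    · obtain ⟨s, s0, s1, s2⟩ := exists_s h2 h5
      have a1 : (s * t) ^ 2 - t ^ 2 ≠ 0 := fun h => s1 (mul_right_cancel₀ tt (by linear_combination h))
      have a2 : (s * t) ^ 2 - 2 * t ^ 2 ≠ 0 :=
        fun h => s2 (mul_right_cancel₀ tt (by linear_combination h))
      rcases k2 e _ _ e0 a1 a2 with ⟨x, x1, x2, -⟩ | ⟨-, e1, -⟩
      · have hz := caseA x (s * t) (mul_ne_zero s0 t0) (h1 ▸ sub_ne_zero.1 a1) (h1 ▸ x1)
        have b1 : q (x - e) = t ^ 2 := by rw [Q_sub, x1, x2, he]; ring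
        have b2 : polar q (x - e) x = Q (x + f) := by
          rw [polar_sub_left, polar_self', polar_comm, x2, hQ, x1, ← h1]; ring
        simpa using (make x (x - e) t hz t0 b1 b2).1
      · exact absurd (e1.symm.trans he) a1
    · rcases k2 ⟨y, hy⟩ (t ^ 2) (Q (y + f)) (fun e => hy0 (congrArg Subtype.val e)) tt
        (hne _ hyf) with ⟨v, v1, v2, v3⟩ | ⟨e1, -⟩
      · obtain ⟨m1, m2⟩ := make ⟨y, hy⟩ v t hyf t0 v1 v2
        obtain ⟨g, hg, rfl⟩ := k3 (⟨y, hy⟩ - v) e (sub_ne_zero.2 v3.symm) e0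
          (by rw [m2, he, h1, sub_self]) (.inr (by omega))
        exact move g hg _ m1
      · exact absurd e1 h5
  have main : ∀ (x : Λ) (t : K), t ≠ 0 → Q (x + f) = t ^ 2 → (x : V) + f ∈ Ψ := by
    intro x t t0 hx
    rw [hQ] at hx
    by_cases h1 : t ^ 2 = Q f
    · by_cases x0 : x = 0
      · obtain ⟨e, e0, he⟩ := H58.exists_singular_of_three_le q (by omega)
        have a1 := caseB e t t0 h1 e0 he
        have a2 := caseB ((2 : K) • e) t t0 h1 (smul_ne_zero h2 e0) (by rw [Q_smul, he, mul_zero])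
        have f0 : Q f ≠ 0 := h1 ▸ pow_ne_zero 2 t0
        have := hinv _ a1 _ a2
        have b1 : polar Q ((e : V) + f) ((((2 : K) • e : Λ) : V) + f) = 2 * Q f := by
          rw [polar_add_left, polar_add_right, polar_add_right, ho e e.2, ← hp, polar_smul_right,
            polar_self' q, he, polar_comm _ f, ho _ ((2 : K) • e).2, polar_self']
          simp
        rw [refl_apply, b1, hQ, he, zero_add, show (Q f)⁻¹ * (2 * Q f) = 2 by field_simp] at this
        refine hneg _ ?_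
        convert this using 1
        simp only [x0, Submodule.coe_zero, Submodule.coe_add, smul_add, two_smul]
        abel
      · exact caseB x t t0 h1 x0 (by linear_combination hx + h1)
    · exact caseA x t t0 h1 (by linear_combination hx)
  intro x t t0 hx
  obtain ⟨a, ha, b, hb, rfl⟩ := Submodule.mem_sup.1 (hc.sup_eq_top.ge (Submodule.mem_top (x := x)))
  obtain ⟨c, rfl⟩ := Submodule.mem_span_singleton.1 hb
  by_cases c0 : c = 0
  · rw [c0, zero_smul, add_zero] at hx ⊢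
    exact hfull a ha t t0 hx
  · have e : a + c • f = c • (((c⁻¹ • ⟨a, ha⟩ : Λ) : V) + f) := by
      rw [smul_add, Submodule.coe_smul, smul_smul, mul_inv_cancel₀ c0, one_smul]
    rw [e] at hx ⊢
    refine hsm _ (main _ (t / c) (div_ne_zero t0 c0) ?_) c c0
    rw [Q_smul] at hx
    rw [div_pow, ← hx]
    field_simp

end H96.O7Step
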